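import Mathlib
import Cfsg.Agent.PF.CycTI

/-!
# Translation between characters of `W₁ ⊔ W₂` and pairs of characters of `W₁`, `W₂`
-/

set_option autoImplicit false
set_option linter.unusedSectionVars false
set_option linter.unusedVariables false

namespace Cfsg.Agent.PF.Bridge

open Cfsg Cfsg.Agent.Char Cfsg.Agent.Coh Cfsg.Agent.PF
open scoped ComplexConjugate Classical

variable {G : Type*} [Group G] [Fintype G] {W₁ W₂ : Subgroup G}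

theorem to0 (hW : IsSelfNormalizingCyclic W₁ W₂) : CycTI0 W₁.subtype W₂.subtype :=
  ⟨W₁.subtype_injective, W₂.subtype_injective, by simpa only [Subgroup.range_subtype] using hW⟩

theorem toTI (hW : IsSelfNormalizingCyclic W₁ W₂) (hodd : Odd (Nat.card ↥(W₁ ⊔ W₂))) :
    CycTI W₁.subtype W₂.subtype :=
  ⟨W₁.subtype_injective, W₂.subtype_injective, (to0 hW).snc,
    hodd.of_dvd_nat (Subgroup.card_dvd_of_le le_sup_left),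
    hodd.of_dvd_nat (Subgroup.card_dvd_of_le le_sup_right)⟩

theorem F_range (h : CycTI0 W₁.subtype W₂.subtype) : h.F.range = W₁ ⊔ W₂ := by
  rw [h.F_range, Subgroup.range_subtype, Subgroup.range_subtype]

/-- The isomorphism `W₁ × W₂ ≃ W₁ ⊔ W₂`. -/
noncomputable def E (h : CycTI0 W₁.subtype W₂.subtype) : W₁ × W₂ ≃* ↥(W₁ ⊔ W₂) :=
  (MonoidHom.ofInjective h.F_inj).trans (MulEquiv.subgroupCongr (F_range h))

theorem coe_E (h : CycTI0 W₁.subtype W₂.subtype) (p : W₁ × W₂) :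
    (E h p : G) = (p.1 : G) * p.2 := h.F_apply p

/-- Restriction to `W₁`. -/
def r₁ (ω : ↥(W₁ ⊔ W₂) →* ℂˣ) : W₁ →* ℂˣ := ω.comp (Subgroup.inclusion le_sup_left)
/-- Restriction to `W₂`. -/
def r₂ (ω : ↥(W₁ ⊔ W₂) →* ℂˣ) : W₂ →* ℂˣ := ω.comp (Subgroup.inclusion le_sup_right)

theorem r₁_mul (ω ω' : ↥(W₁ ⊔ W₂) →* ℂˣ) : r₁ (ω * ω') = r₁ ω * r₁ ω' := rfl
theorem r₂_mul (ω ω' : ↥(W₁ ⊔ W₂) →* ℂˣ) : r₂ (ω * ω') = r₂ ω * r₂ ω' := rfl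
theorem r₁_inv (ω : ↥(W₁ ⊔ W₂) →* ℂˣ) : r₁ ω⁻¹ = (r₁ ω)⁻¹ := rfl
theorem r₂_inv (ω : ↥(W₁ ⊔ W₂) →* ℂˣ) : r₂ ω⁻¹ = (r₂ ω)⁻¹ := rfl
theorem r₁_one : r₁ (1 : ↥(W₁ ⊔ W₂) →* ℂˣ) = 1 := rfl
theorem r₂_one : r₂ (1 : ↥(W₁ ⊔ W₂) →* ℂˣ) = 1 := rfl
theorem r₁_pow (ω : ↥(W₁ ⊔ W₂) →* ℂˣ) (n : ℕ) : r₁ (ω ^ n) = r₁ ω ^ n := by
  ext x; simp [r₁]
theorem r₂_pow (ω : ↥(W₁ ⊔ W₂) →* ℂˣ) (n : ℕ) : r₂ (ω ^ n) = r₂ ω ^ n := by
  ext x; simp [r₂]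

theorem r₁_eq_iff {ω ω' : ↥(W₁ ⊔ W₂) →* ℂˣ} :
    r₁ ω = r₁ ω' ↔ ∀ w : ↥(W₁ ⊔ W₂), (w : G) ∈ W₁ → ω w = ω' w :=
  ⟨fun h w hw => DFunLike.congr_fun h ⟨w, hw⟩, fun h => MonoidHom.ext fun x => h _ x.2⟩
theorem r₂_eq_iff {ω ω' : ↥(W₁ ⊔ W₂) →* ℂˣ} :
    r₂ ω = r₂ ω' ↔ ∀ w : ↥(W₁ ⊔ W₂), (w : G) ∈ W₂ → ω w = ω' w :=
  ⟨fun h w hw => DFunLike.congr_fun h ⟨w, hw⟩, fun h => MonoidHom.ext fun x => h _ x.2⟩
theorem r₁_eq_one {ω : ↥(W₁ ⊔ W₂) →* ℂˣ} :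
    r₁ ω = 1 ↔ ∀ w : ↥(W₁ ⊔ W₂), (w : G) ∈ W₁ → ω w = 1 := r₁_eq_iff (ω' := 1)
theorem r₂_eq_one {ω : ↥(W₁ ⊔ W₂) →* ℂˣ} :
    r₂ ω = 1 ↔ ∀ w : ↥(W₁ ⊔ W₂), (w : G) ∈ W₂ → ω w = 1 := r₂_eq_iff (ω' := 1)

theorem apply_E (h : CycTI0 W₁.subtype W₂.subtype) (ω : ↥(W₁ ⊔ W₂) →* ℂˣ) (p : W₁ × W₂) :
    ω (E h p) = r₁ ω p.1 * r₂ ω p.2 := by
  rw [r₁, r₂, MonoidHom.comp_apply, MonoidHom.comp_apply, ← map_mul]
  congr 1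

theorem ext_r (h : CycTI0 W₁.subtype W₂.subtype) {ω ω' : ↥(W₁ ⊔ W₂) →* ℂˣ} :
    ω = ω' ↔ r₁ ω = r₁ ω' ∧ r₂ ω = r₂ ω' := by
  refine ⟨fun e => by rw [e]; exact ⟨rfl, rfl⟩, fun e => MonoidHom.ext fun w => ?_⟩
  obtain ⟨p, rfl⟩ := (E h).surjective w
  rw [apply_E, apply_E, e.1, e.2]

/-- The character of `W₁ ⊔ W₂` with given restrictions. -/
noncomputable def omg (h : CycTI0 W₁.subtype W₂.subtype) (i : W₁ →* ℂˣ) (j : W₂ →* ℂˣ) :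
    ↥(W₁ ⊔ W₂) →* ℂˣ := (i.coprod j).comp (E h).symm.toMonoidHom

theorem omg_E (h : CycTI0 W₁.subtype W₂.subtype) (i j) (p : W₁ × W₂) :
    omg h i j (E h p) = i p.1 * j p.2 := by simp [omg]

theorem r₁_omg (h : CycTI0 W₁.subtype W₂.subtype) (i j) : r₁ (omg h i j) = i := by
  ext1 x
  have := apply_E h (omg h i j) (x, 1)
  rw [omg_E] at this
  simpa using this.symm
theorem r₂_omg (h : CycTI0 W₁.subtype W₂.subtype) (i j) : r₂ (omg h i j) = j := by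
  ext1 x
  have := apply_E h (omg h i j) (1, x)
  rw [omg_E] at this
  simpa using this.symm
theorem omg_r (h : CycTI0 W₁.subtype W₂.subtype) (ω) : omg h (r₁ ω) (r₂ ω) = ω := by
  rw [ext_r h, r₁_omg, r₂_omg]; exact ⟨rfl, rfl⟩
theorem omg_inj (h : CycTI0 W₁.subtype W₂.subtype) {i i' j j'} :
    omg h i j = omg h i' j' ↔ i = i' ∧ j = j' := by
  rw [ext_r h, r₁_omg, r₂_omg, r₁_omg, r₂_omg]

/-- Pairs of characters. -/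
noncomputable def pairEquiv (h : CycTI0 W₁.subtype W₂.subtype) :
    (W₁ →* ℂˣ) × (W₂ →* ℂˣ) ≃ (↥(W₁ ⊔ W₂) →* ℂˣ) where
  toFun p := omg h p.1 p.2
  invFun ω := (r₁ ω, r₂ ω)
  left_inv p := Prod.ext (r₁_omg h _ _) (r₂_omg h _ _)
  right_inv ω := omg_r h ω

theorem mem₁_iff (h : CycTI0 W₁.subtype W₂.subtype) (p : W₁ × W₂) :
    (E h p : G) ∈ W₁ ↔ p.2 = 1 := by
  rw [coe_E]
  refine ⟨fun hm => by_contra fun hy => h.not_mem₁ p.1 hy ?_, fun e => by simp [e]⟩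
  rwa [Subgroup.range_subtype]
theorem mem₂_iff (h : CycTI0 W₁.subtype W₂.subtype) (p : W₁ × W₂) :
    (E h p : G) ∈ W₂ ↔ p.1 = 1 := by
  rw [coe_E]
  refine ⟨fun hm => by_contra fun hy => h.not_mem₂ hy p.2 ?_, fun e => by simp [e]⟩
  rwa [Subgroup.range_subtype]

theorem indFun_eq (h : CycTI0 W₁.subtype W₂.subtype) (α : ↥(W₁ ⊔ W₂) → ℂ) :
    indFun (W₁ ⊔ W₂) α = Ind.indHom h.F (fun p => α (E h p)) := by
  rw [Ind.indFun_eq_indHom, ← Ind.indHom_comp_equiv _ (E h)]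
  congr 1

theorem indFun_alp (h : CycTI0 W₁.subtype W₂.subtype) {φ ψ : ↥(W₁ ⊔ W₂) →* ℂˣ} (hφ : r₂ φ = 1)
    (hψ : r₁ ψ = 1) :
    indFun (W₁ ⊔ W₂) (fun w => 1 - (φ w : ℂ) - (ψ w : ℂ) + (φ w : ℂ) * (ψ w : ℂ)) =
      Ind.indHom h.F (alp (r₁ φ) (r₂ ψ)) := by
  rw [indFun_eq h]
  congr 1
  funext p
  rw [alp_apply, apply_E, apply_E, hφ, hψ]
  simp only [MonoidHom.one_apply, mul_one, one_mul]
  ring

theorem r₁_ne_one (h : CycTI0 W₁.subtype W₂.subtype) {φ : ↥(W₁ ⊔ W₂) →* ℂˣ} (h1 : φ ≠ 1)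
    (h2 : r₂ φ = 1) : r₁ φ ≠ 1 := fun e => h1 ((ext_r h).mpr ⟨e, h2⟩)
theorem r₂_ne_one (h : CycTI0 W₁.subtype W₂.subtype) {φ : ↥(W₁ ⊔ W₂) →* ℂˣ} (h1 : φ ≠ 1)
    (h2 : r₁ φ = 1) : r₂ φ ≠ 1 := fun e => h1 ((ext_r h).mpr ⟨h2, e⟩)

theorem etaFam (h : CycTI0 W₁.subtype W₂.subtype) {χ : (↥(W₁ ⊔ W₂) →* ℂˣ) → G → ℂ}
    (hχ : IsCyclicTIFamily W₁ W₂ χ) : EtaFam h (fun i j => χ (omg h i j)) where
  dirr i j := hχ.irr_or_neg _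
  inner i i' j j' := by
    rw [hχ.orthonormal]
    simp only [omg_inj]
  ind i j := by
    by_cases hi : i = 1
    · subst hi
      rw [alp_one_left, indHom_zero]; abel
    by_cases hj : j = 1
    · subst hj
      rw [alp_one_right, indHom_zero]; abel
    have o1 : omg h 1 1 = 1 := omg_r h 1
    have := hχ.induced_eq (omg h i 1) (omg h 1 j) (by rw [← o1, Ne, omg_inj]; tauto)
      (by rw [← o1, Ne, omg_inj]; tauto) (r₂_eq_one.mp (r₂_omg h _ _))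
      (r₁_eq_one.mp (r₁_omg h _ _))
    rw [indFun_alp h (r₂_omg h _ _) (r₁_omg h _ _), r₁_omg, r₂_omg] at this
    have e : omg h i 1 * omg h 1 j = omg h i j := by
      rw [ext_r h, r₁_mul, r₂_mul]
      simp only [r₁_omg, r₂_omg]
      exact ⟨mul_one i, one_mul j⟩
    rw [this, e, o1, hχ.map_one]
    rfl

theorem vanish (h : CycTI0 W₁.subtype W₂.subtype) {θ : G → ℂ}
    (hθV : ∀ w : ↥(W₁ ⊔ W₂), (w : G) ∉ W₁ → (w : G) ∉ W₂ → θ w = 0) (x : W₁) (y : W₂)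
    (hx : x ≠ 1) (hy : y ≠ 1) : θ (W₁.subtype x * W₂.subtype y) = 0 := by
  have := hθV (E h (x, y)) (by rw [mem₁_iff]; exact hy) (by rw [mem₂_iff]; exact hx)
  rwa [coe_E] at this

theorem eq_eta (h : CycTI W₁.subtype W₂.subtype) {χ : (↥(W₁ ⊔ W₂) →* ℂˣ) → G → ℂ}
    (hχ : IsCyclicTIFamily W₁ W₂ χ) (ω) : χ ω = eta W₁.subtype W₂.subtype (r₁ ω) (r₂ ω) := by
  refine h.eta_unique (hχ.irr_or_neg ω) fun x y hx hy => ?_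
  have := hχ.eq_on ω (E h.to0 (x, y)) (by rw [mem₁_iff]; exact hy) (by rw [mem₂_iff]; exact hx)
  rwa [apply_E, coe_E, Units.val_mul] at this

theorem family (h : CycTI W₁.subtype W₂.subtype) :
    IsCyclicTIFamily W₁ W₂ fun ω => eta W₁.subtype W₂.subtype (r₁ ω) (r₂ ω) where
  irr_or_neg ω := h.eta_sirr _ _
  orthonormal ω ω' := by
    rw [h.eta_inner]
    simp only [ext_r h.to0 (ω := ω)]
    congr
  map_one := h.eta_one_one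
  eq_on ω w h1 h2 := by
    obtain ⟨p, rfl⟩ := (E h.to0).surjective w
    rw [mem₁_iff] at h1
    rw [mem₂_iff] at h2
    rw [apply_E, coe_E, Units.val_mul]
    exact h.eta_apply _ _ h2 h1
  induced_eq φ ψ _ _ h1 h2 := by
    rw [← r₂_eq_one] at h1
    rw [← r₁_eq_one] at h2
    rw [indFun_alp h.to0 h1 h2, h.fam.1.ind, h.eta_one_one, r₁_mul, r₂_mul, h1, h2,
      mul_one (r₁ φ), one_mul (r₂ ψ)]
    rfl

end Cfsg.Agent.PF.Bridge
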