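import Mathlib
import Cfsg.Agent.PF.PrimeTI
import Cfsg.Agent.PF.CycBridge

/-!
# Hypothesis (4.2) for subgroups
-/

set_option autoImplicit false
set_option linter.unusedSectionVars false
set_option linter.unusedVariables false

namespace Cfsg.Agent.PF.Bridge

open Cfsg Cfsg.Agent.PF

theorem toPrimeTI {L : Type*} [Group L] [Fintype L] (K W₁ W₂ : Subgroup L) [hK : K.Normal]
    (hKW₁ : K ⊓ W₁ = ⊥) (hKW₁' : K ⊔ W₁ = ⊤) (hW₁ : W₁ ≠ ⊥) (hW₁c : IsCyclic W₁)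
    (hHall : Nat.Coprime (Nat.card W₁) W₁.index) (hW₂ : W₂ ≠ ⊥) (hW₂c : IsCyclic W₂)
    (hC : ∀ x ∈ W₁, x ≠ 1 → K ⊓ Subgroup.centralizer ({x} : Set L) = W₂)
    (hodd : Odd (Nat.card ↥(W₁ ⊔ W₂))) : PrimeTI K W₁.subtype W₂.subtype where
  normal := hK
  inj₁ := W₁.subtype_injective
  inj₂ := W₂.subtype_injective
  inf_eq := by rwa [Subgroup.range_subtype]
  sup_eq := by rwa [Subgroup.range_subtype]
  nontriv₁ := (Subgroup.nontrivial_iff_ne_bot _).mpr hW₁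
  nontriv₂ := (Subgroup.nontrivial_iff_ne_bot _).mpr hW₂
  cyc₁ := hW₁c
  cyc₂ := hW₂c
  hall := by
    have : K.IsComplement' W₁ := Subgroup.isComplement'_of_disjoint_and_mul_eq_univ
      (disjoint_iff.mpr hKW₁) (by rw [← Subgroup.normal_mul, hKW₁']; rfl)
    rwa [this.index_eq_card] at hHall
  cent x hx := by
    rw [Subgroup.range_subtype]
    exact hC x x.2 fun e => hx (Subtype.ext e)
  odd₁ := hodd.of_dvd_nat (Subgroup.card_dvd_of_le le_sup_left)
  odd₂ := hodd.of_dvd_nat (Subgroup.card_dvd_of_le le_sup_right)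

end Cfsg.Agent.PF.Bridge
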